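import Cfsg.Agent.Lib.Chars.Orth
import Mathlib.RingTheory.Norm.Transitivity
import Mathlib.RingTheory.RootsOfUnity.Complex
import Mathlib.Analysis.SpecialFunctions.Log.Basic
import Mathlib.Analysis.Complex.Polynomial.Basic
import Mathlib.FieldTheory.IntermediateField.Adjoin.Basic
import Mathlib.RingTheory.IntegralClosure.IntegrallyClosed
import Mathlib.RingTheory.Polynomial.RationalRoot

/-!
Averaging over the embeddings of a cyclotomic field.
-/

namespace CfsgLib.Chars

open scoped ComplexConjugate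
open Cfsg

universe u

/-- The field generated by the `n`-th roots of unity. -/
noncomputable def cycField (n : ℕ) : IntermediateField ℚ ℂ := IntermediateField.adjoin ℚ {z : ℂ | z ^ n = 1}

theorem root_mem_cycField {n : ℕ} {z : ℂ} (h : z ^ n = 1) : z ∈ cycField n :=
  IntermediateField.subset_adjoin _ _ h

theorem conj_mem_cycField {n : ℕ} {z : ℂ} (hz : z ∈ cycField n) : conj z ∈ cycField n := by
  refine IntermediateField.adjoin_induction ℚ (p := fun x _ => conj x ∈ cycField n) ?_ ?_ ?_ ?_ ?_ hz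
  · intro x hx
    exact root_mem_cycField (by rw [← map_pow, show x ^ n = 1 from hx, map_one])
  · intro q
    simp [SubfieldClass.ratCast_mem]
  · intro a b _ _ ha hb
    rw [map_add]; exact add_mem ha hb
  · intro a _ ha
    rw [map_inv₀]; exact inv_mem ha
  · intro a b _ _ ha hb
    rw [map_mul]; exact mul_mem ha hb

theorem char_mem_cycField {G : Type u} [Group G] [Finite G] {χ : G → ℂ} (hχ : IsCharacter G χ)
    {g : G} {n : ℕ} (h : orderOf g ∣ n) : χ g ∈ cycField n := by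
  obtain ⟨l, hl, hsum⟩ := exists_list_eigen hχ g
  have e : χ g = l.sum := by simpa using hsum 1
  rw [e]
  refine list_sum_mem fun μ hμ => root_mem_cycField ?_
  obtain ⟨c, rfl⟩ := h
  rw [pow_mul, hl μ hμ, one_pow]

/-- An embedding of the cyclotomic field commutes with complex conjugation. -/
theorem embedding_conj {n : ℕ} (hn : 0 < n) (σ : cycField n →ₐ[ℚ] ℂ) {z : ℂ} (hz : z ∈ cycField n) :
    σ ⟨conj z, conj_mem_cycField hz⟩ = conj (σ ⟨z, hz⟩) := by
  refine IntermediateField.adjoin_induction ℚ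
    (p := fun x hx => σ ⟨conj x, conj_mem_cycField hx⟩ = conj (σ ⟨x, hx⟩)) ?_ ?_ ?_ ?_ ?_ hz
  · intro x hx
    have hx' : x ^ n = 1 := hx
    have hxK := root_mem_cycField hx'
    have hnx : ‖x‖ = 1 := norm_eq_one_of_pow_eq_one hn.ne' hx'
    have hy : σ ⟨x, hxK⟩ ^ n = 1 := by
      rw [← map_pow, show (⟨x, hxK⟩ : cycField n) ^ n = 1 from Subtype.ext (by simp [hx']), map_one]
    have hny : ‖σ ⟨x, hxK⟩‖ = 1 := norm_eq_one_of_pow_eq_one hn.ne' hy
    rw [← Complex.inv_eq_conj hny, ← map_inv₀]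
    congr 1
    exact Subtype.ext (by simp [Complex.inv_eq_conj hnx])
  · intro q
    refine (congrArg σ (Subtype.ext (by simp) :
      (⟨conj (algebraMap ℚ ℂ q), _⟩ : cycField n) = algebraMap ℚ (cycField n) q)).trans ?_
    refine (AlgHom.commutes σ q).trans (Eq.symm ((congrArg conj (AlgHom.commutes σ q)).trans ?_))
    simp
  · intro a b ha hb e₁ e₂
    rw [show (⟨conj (a + b), _⟩ : cycField n) = ⟨conj a, conj_mem_cycField ha⟩ +
      ⟨conj b, conj_mem_cycField hb⟩ from Subtype.ext (map_add _ _ _),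
      show (⟨a + b, _⟩ : cycField n) = ⟨a, ha⟩ + ⟨b, hb⟩ from rfl, map_add, map_add, map_add, e₁, e₂]
  · intro a ha e₁
    rw [show (⟨conj a⁻¹, _⟩ : cycField n) = (⟨conj a, conj_mem_cycField ha⟩)⁻¹ from
      Subtype.ext (map_inv₀ _ _),
      show (⟨a⁻¹, _⟩ : cycField n) = (⟨a, ha⟩)⁻¹ from rfl, map_inv₀, map_inv₀, map_inv₀, e₁]
  · intro a b ha hb e₁ e₂
    rw [show (⟨conj (a * b), _⟩ : cycField n) = ⟨conj a, conj_mem_cycField ha⟩ *
      ⟨conj b, conj_mem_cycField hb⟩ from Subtype.ext (map_mul _ _ _),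
      show (⟨a * b, _⟩ : cycField n) = ⟨a, ha⟩ * ⟨b, hb⟩ from rfl, map_mul, map_mul, map_mul, e₁, e₂]

/-- Nonzero cyclotomic integers have squared norm at least one on average. -/
theorem card_le_of_sum_normSq {n : ℕ} (hn : 0 < n) {ι : Type*} (s : Finset ι) (z : ι → ℂ)
    (hz : ∀ i ∈ s, z i ∈ cycField n) (hint : ∀ i ∈ s, IsIntegral ℤ (z i))
    (hne : ∀ i ∈ s, z i ≠ 0) {q : ℚ} (hq : ∑ i ∈ s, z i * conj (z i) = (q : ℂ)) :
    (s.card : ℝ) ≤ (q : ℝ) := by
  classical
  haveI : Finite {z : ℂ | z ^ n = 1} :=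
    Set.Finite.to_subtype (by
      refine (Polynomial.nthRoots n (1 : ℂ)).toFinset.finite_toSet.subset fun x hx => ?_
      simpa [Polynomial.mem_nthRoots hn] using hx)
  haveI : FiniteDimensional ℚ (cycField n) :=
    IntermediateField.finiteDimensional_adjoin fun x hx =>
      IsIntegral.of_pow hn (by rw [show x ^ n = 1 from hx]; exact isIntegral_one)
  set N := Fintype.card (cycField n →ₐ[ℚ] ℂ)
  have hN : 0 < N := Fintype.card_pos_iff.mpr ⟨(cycField n).val⟩
  let Z : {i // i ∈ s} → cycField n := fun i => ⟨z i.1, hz i.1 i.2⟩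
  have hrow : ∀ σ : cycField n →ₐ[ℚ] ℂ, ∑ i : {i // i ∈ s}, Complex.normSq (σ (Z i)) = (q : ℝ) := by
    intro σ
    apply Complex.ofReal_injective
    rw [Complex.ofReal_sum]
    have e : ∀ i : {i // i ∈ s}, ((Complex.normSq (σ (Z i)) : ℝ) : ℂ) =
        σ (Z i * ⟨conj (z i.1), conj_mem_cycField (hz i.1 i.2)⟩) := fun i => by
      rw [map_mul, embedding_conj hn σ (hz i.1 i.2), Complex.mul_conj]
    rw [Finset.sum_congr rfl fun i _ => e i, ← map_sum,
      show (∑ i : {i // i ∈ s}, Z i * ⟨conj (z i.1), conj_mem_cycField (hz i.1 i.2)⟩) =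
        algebraMap ℚ (cycField n) q from ?_, AlgHom.commutes]
    · simp
    · apply Subtype.ext
      have e2 : ((∑ i : {i // i ∈ s}, Z i * ⟨conj (z i.1), conj_mem_cycField (hz i.1 i.2)⟩ :
          cycField n) : ℂ) = ∑ i : {i // i ∈ s}, z i.1 * conj (z i.1) :=
        map_sum (cycField n).val _ _
      rw [e2, Finset.sum_coe_sort s (fun i => z i * conj (z i)), hq]
      simp
  have hcol : ∀ i : {i // i ∈ s}, (N : ℝ) ≤ ∑ σ : cycField n →ₐ[ℚ] ℂ, Complex.normSq (σ (Z i)) := by
    intro i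
    have hI : IsIntegral ℤ (Z i) :=
      (isIntegral_algHom_iff ((cycField n).val.restrictScalars ℤ) Subtype.val_injective).mp
        (hint i.1 i.2)
    obtain ⟨m, hm⟩ := IsIntegrallyClosed.isIntegral_iff.mp (Algebra.isIntegral_norm ℚ hI)
    have hp := Algebra.norm_eq_prod_embeddings ℚ ℂ (Z i)
    have hne' : ∀ σ : cycField n →ₐ[ℚ] ℂ, σ (Z i) ≠ 0 := fun σ e => hne i.1 i.2
      (congrArg Subtype.val ((map_eq_zero σ).mp e))
    have hm0 : m ≠ 0 := fun e => by
      rw [← hm, e, map_zero, map_zero] at hp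
      exact Finset.prod_ne_zero_iff.mpr (fun σ _ => hne' σ) hp.symm
    have h1 : 1 ≤ ∏ σ : cycField n →ₐ[ℚ] ℂ, Complex.normSq (σ (Z i)) := by
      rw [← map_prod, ← hp, ← hm]
      simp only [eq_intCast, eq_ratCast, Rat.cast_intCast, Complex.normSq_intCast]
      exact_mod_cast Int.le_of_lt_add_one (by nlinarith [Int.one_le_abs hm0, abs_mul_abs_self m])
    have hpos : ∀ σ : cycField n →ₐ[ℚ] ℂ, 0 < Complex.normSq (σ (Z i)) := fun σ =>
      Complex.normSq_pos.mpr (hne' σ)
    have h2 := Real.log_nonneg h1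
    rw [Real.log_prod (fun σ _ => (hpos σ).ne')] at h2
    have h3 : ∑ σ : cycField n →ₐ[ℚ] ℂ, Real.log (Complex.normSq (σ (Z i))) ≤
        ∑ σ : cycField n →ₐ[ℚ] ℂ, (Complex.normSq (σ (Z i)) - 1) :=
      Finset.sum_le_sum fun σ _ => Real.log_le_sub_one_of_pos (hpos σ)
    rw [Finset.sum_sub_distrib] at h3
    simp only [Finset.sum_const, nsmul_eq_mul, mul_one, Finset.card_univ] at h3
    linarith
  have h := Finset.sum_le_sum (s := Finset.univ) fun i _ => hcol i
  rw [Finset.sum_comm, Finset.sum_congr rfl fun σ _ => hrow σ] at h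
  simp only [Finset.sum_const, nsmul_eq_mul, Finset.card_univ, Fintype.card_coe] at h
  rw [mul_comm (s.card : ℝ)] at h
  exact le_of_mul_le_mul_left h (by exact_mod_cast hN)

end CfsgLib.Chars
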