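import Cfsg.Agent.S0153
import Cfsg.Agent.Lib.BrauerInd.Main

/-! Splitting fields from monomial induction: descent of irreducible characters to subfields. -/

set_option autoImplicit false
set_option linter.unusedSectionVars false
set_option linter.style.haveILetI false

namespace CfsgLib.CyclotomicSplit

open Cfsg CfsgLib.Chars Module

universe u v w

variable {G : Type u} [Group G] [Fintype G] {K : Type v} [Field K] [CharZero K] (ι : K →+* ℂ)

/-- Functions which are characters of representations over `K`. -/
def Realizable (f : G → ℂ) : Prop :=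
  ∃ (a : ℕ) (σ : Representation K G (Fin a → K)), ∀ g, f g = ι (σ.character g)

/-- Transport to coordinates. -/
theorem realizable_of_rep {V : Type w} [AddCommGroup V] [Module K V] [FiniteDimensional K V]
    (σ : Representation K G V) {f : G → ℂ} (h : ∀ g, f g = ι (σ.character g)) : Realizable ι f := by
  let e := (Module.finBasis K V).equivFun
  refine ⟨_, ⟨⟨fun g => e.conj (σ g), ?_⟩, ?_⟩, fun g => ?_⟩
  · rw [map_one]; ext v; simp [LinearEquiv.conj_apply]
  · intro g₁ g₂
    show e.conj (σ (g₁ * g₂)) = e.conj (σ g₁) * e.conj (σ g₂)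
    rw [map_mul]; ext v; simp [LinearEquiv.conj_apply, Module.End.mul_eq_comp]
  · rw [h g]
    congr 1
    exact (LinearMap.trace_conj' (σ g) e).symm

theorem realizable_add {f₁ f₂ : G → ℂ} (h₁ : Realizable ι f₁) (h₂ : Realizable ι f₂) : Realizable ι (f₁ + f₂) := by
  obtain ⟨a, σ, hσ⟩ := h₁
  obtain ⟨b, τ, hτ⟩ := h₂
  let π : Representation K G ((Fin a → K) × (Fin b → K)) :=
    { toFun := fun g => (σ g).prodMap (τ g)
      map_one' := by ext v <;> simp
      map_mul' := fun g g' => by ext v <;> simp }
  refine realizable_of_rep ι π fun g => ?_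
  rw [Pi.add_apply, hσ, hτ, ← map_add]
  congr 1
  exact (LinearMap.trace_prodMap' _ _).symm

theorem realizable_zero : Realizable (G := G) ι (0 : G → ℂ) :=
  realizable_of_rep ι (1 : Representation K G (Fin 0 → K)) fun g => by
    simp [Representation.character, Subsingleton.elim ((1 : Representation K G (Fin 0 → K)) g) 0]

section Monomial

variable (H : Subgroup G) (c : H →* Kˣ)

open Classical in
/-- The monomial coefficient. -/
noncomputable def coef (g : G) (q : G ⧸ H) : K :=
  if h : (q.out : G)⁻¹ * g * (g⁻¹ • q).out ∈ H then (c ⟨_, h⟩ : K) else 0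

theorem coef_mem (g : G) (q : G ⧸ H) : (q.out : G)⁻¹ * g * (g⁻¹ • q).out ∈ H := by
  have h : ((g⁻¹ • q).out : G ⧸ H) = ((g⁻¹ * q.out : G) : G ⧸ H) := by
    rw [QuotientGroup.out_eq']
    conv_lhs => rw [← QuotientGroup.out_eq' q]
    rfl
  have h2 := QuotientGroup.eq.1 h
  have h3 := H.inv_mem h2
  rwa [mul_inv_rev, inv_inv, mul_inv_rev, inv_inv] at h3

theorem coef_eq (g : G) (q : G ⧸ H) : coef H c g q = (c ⟨_, coef_mem H g q⟩ : K) := dif_pos _

theorem coef_mul (g g' : G) (q : G ⧸ H) : coef H c (g * g') q = coef H c g q * coef H c g' (g⁻¹ • q) := by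
  rw [coef_eq, coef_eq, coef_eq, ← Units.val_mul, ← map_mul]
  congr 2
  apply Subtype.ext
  show (q.out : G)⁻¹ * (g * g') * ((g * g')⁻¹ • q).out =
    ((q.out : G)⁻¹ * g * (g⁻¹ • q).out) * (((g⁻¹ • q).out : G)⁻¹ * g' * (g'⁻¹ • g⁻¹ • q).out)
  rw [mul_inv_rev, mul_smul]
  group

/-- The monomial representation over `K`. -/
noncomputable def monRep : Representation K G (G ⧸ H → K) where
  toFun g :=
    { toFun := fun f q => coef H c g q * f (g⁻¹ • q)
      map_add' := fun f f' => funext fun q => mul_add _ _ _
      map_smul' := fun r f => funext fun q => by simp [mul_left_comm] }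
  map_one' := by
    refine LinearMap.ext fun f => funext fun q => ?_
    show coef H c 1 q * f ((1 : G)⁻¹ • q) = f q
    rw [coef_eq, show (⟨_, coef_mem H 1 q⟩ : H) = 1 from Subtype.ext (by simp), map_one,
      Units.val_one, one_mul, inv_one, one_smul]
  map_mul' g g' := by
    refine LinearMap.ext fun f => funext fun q => ?_
    show coef H c (g * g') q * f ((g * g')⁻¹ • q) = coef H c g q * (coef H c g' (g⁻¹ • q) * f (g'⁻¹ • g⁻¹ • q))
    rw [coef_mul, mul_assoc, mul_inv_rev, mul_smul]

theorem monRep_character (g : G) :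
    ι ((monRep H c).character g) = indFun H (fun h => ι (c h : K)) g := by
  classical
  haveI : Fintype (G ⧸ H) := Fintype.ofFinite _
  set θ : H → ℂ := fun h => ι (c h : K) with hθ
  have hF : ∀ (x : G) (h : H), extendByZero H θ ((x * h)⁻¹ * g * (x * h)) = extendByZero H θ (x⁻¹ * g * x) := by
    intro x h
    rw [show (x * (h : G))⁻¹ * g * (x * h) = (h : G)⁻¹ * (x⁻¹ * g * x) * h by group]
    by_cases hx : x⁻¹ * g * x ∈ H
    · rw [show (h : G)⁻¹ * (x⁻¹ * g * x) * h = ((h⁻¹ * ⟨_, hx⟩ * h : H) : G) by simp, extendByZero_coe,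
        extendByZero_apply H θ (x⁻¹ * g * x), dif_pos hx, hθ]
      simp only
      congr 2
      rw [map_mul, map_mul, map_inv, mul_comm, mul_inv_cancel_left]
    · rw [extendByZero_apply, dif_neg (fun h' => hx (by
        have := H.mul_mem (H.mul_mem h.2 h') (H.inv_mem h.2)
        simpa [mul_assoc] using this)), extendByZero_apply, dif_neg hx]
  have htr : (monRep H c).character g = ∑ q : G ⧸ H, if g⁻¹ • q = q then coef H c g q else 0 := by
    show LinearMap.trace K _ (monRep H c g) = _
    rw [LinearMap.trace_eq_matrix_trace K (Pi.basisFun K (G ⧸ H)), Matrix.trace]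
    refine Finset.sum_congr rfl fun q _ => ?_
    rw [Matrix.diag, LinearMap.toMatrix_apply, Pi.basisFun_apply, Pi.basisFun_repr]
    show coef H c g q * (Pi.single q (1 : K) : G ⧸ H → K) (g⁻¹ • q) = _
    rw [Pi.single_apply]
    split_ifs <;> simp
  rw [htr, map_sum]
  have hsum : ∀ F : G → ℂ, (∀ (x : G) (h : H), F (x * h) = F x) →
      ∑ x : G, F x = (Nat.card H : ℂ) * ∑ q : G ⧸ H, F q.out := by
    intro F hF'
    rw [← Finset.sum_fiberwise Finset.univ (fun x : G => (x : G ⧸ H)), Finset.mul_sum]
    refine Finset.sum_congr rfl fun q _ => ?_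
    rw [Finset.sum_congr rfl (g := fun _ => F q.out) fun x hx => by
      simp only [Finset.mem_filter, Finset.mem_univ, true_and] at hx
      obtain ⟨h, hh⟩ : ∃ h : H, q.out * h = x :=
        ⟨⟨_, QuotientGroup.eq.1 ((QuotientGroup.out_eq' q).trans hx.symm)⟩, mul_inv_cancel_left _ _⟩
      rw [← hh, hF'], Finset.sum_const, nsmul_eq_mul]
    congr 2
    rw [← Fintype.card_subtype, ← Nat.card_eq_fintype_card]
    let e : H ≃ {x : G // (x : G ⧸ H) = q} :=
      { toFun := fun h => ⟨q.out * (h : G), by rw [QuotientGroup.mk_mul_of_mem _ h.2, QuotientGroup.out_eq']⟩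
        invFun := fun x => ⟨(q.out : G)⁻¹ * x.1, QuotientGroup.eq.1 ((QuotientGroup.out_eq' q).trans x.2.symm)⟩
        left_inv := fun h => Subtype.ext (by simp)
        right_inv := fun x => Subtype.ext (by simp) }
    exact (Nat.card_congr e).symm
  rw [indFun, hsum _ hF, inv_mul_cancel_left₀ (by exact_mod_cast Nat.card_pos.ne')]
  refine Finset.sum_congr rfl fun q _ => ?_
  split_ifs with hq
  · rw [coef_eq, extendByZero_apply, dif_pos (by simpa [hq] using coef_mem H g q), hθ]
    congr 3
    exact Subtype.ext (by simp [hq])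
  · rw [map_zero, extendByZero_apply, dif_neg fun h' => hq ?_]
    conv_rhs => rw [← QuotientGroup.out_eq' q]
    conv_lhs => rw [← QuotientGroup.out_eq' q]
    show ((g⁻¹ * q.out : G) : G ⧸ H) = _
    rw [QuotientGroup.eq, mul_inv_rev, inv_inv]
    exact h'

end Monomial

theorem exists_compl {V : Type w} [AddCommGroup V] [Module K V] (ρ : Representation K G V) (W : Subrepresentation ρ) :
    ∃ C : Subrepresentation ρ, IsCompl W.toSubmodule C.toSubmodule := by
  haveI : NeZero (Nat.card G : K) := ⟨by exact_mod_cast Nat.card_pos.ne'⟩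
  haveI : Representation.IsSemisimpleRepresentation ρ := inferInstance
  obtain ⟨C, hC⟩ := exists_isCompl W
  refine ⟨C, ?_, ?_⟩
  · rw [disjoint_iff]; exact congrArg Subrepresentation.toSubmodule hC.inf_eq_bot
  · rw [codisjoint_iff]; exact congrArg Subrepresentation.toSubmodule hC.sup_eq_top

theorem character_split {V : Type w} [AddCommGroup V] [Module K V] [FiniteDimensional K V]
    (ρ : Representation K G V) (W C : Subrepresentation ρ) (hc : IsCompl W.toSubmodule C.toSubmodule) (g : G) :
    ρ.character g = W.toRepresentation.character g + C.toRepresentation.character g := by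
  simp only [Representation.character]
  rw [← LinearMap.trace_prodMap', ← LinearMap.trace_conj'
    ((W.toRepresentation g).prodMap (C.toRepresentation g)) (Submodule.prodEquivOfIsCompl _ _ hc)]
  congr 1
  apply LinearMap.ext
  intro v
  obtain ⟨⟨a, b⟩, rfl⟩ := (Submodule.prodEquivOfIsCompl _ _ hc).surjective v
  rw [LinearEquiv.conj_apply, LinearMap.comp_apply, LinearMap.comp_apply, LinearEquiv.coe_coe, LinearEquiv.coe_coe,
    LinearEquiv.symm_apply_apply]
  simp only [LinearMap.prodMap_apply, Submodule.coe_prodEquivOfIsCompl', map_add]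
  rfl

theorem pair_eq {a b : ℕ} (σ : Representation K G (Fin a → K)) (τ : Representation K G (Fin b → K)) :
    (Nat.card G : ℂ)⁻¹ * ∑ g : G, ι (τ.character g) * ι (σ.character g⁻¹) =
      (Module.finrank K (Representation.IntertwiningMap σ τ) : ℂ) := by
  letI : Invertible (Nat.card G : K) := invertibleOfNonzero (by exact_mod_cast Nat.card_pos.ne')
  have := congrArg ι (Representation.card_inv_mul_sum_char_mul_char_eq_finrank σ τ)
  simpa using this

/-- An irreducible character which is a difference of realizable ones is realizable. -/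
theorem descent (χ : G → ℂ) (hχ : (Nat.card G : ℂ)⁻¹ * ∑ g : G, χ g * χ g⁻¹ = 1)
    (hdeg : ∃ d : ℕ, 0 < d ∧ χ 1 = d) :
    ∀ (a : ℕ) (σ : Representation K G (Fin a → K)) (b : ℕ) (τ : Representation K G (Fin b → K)),
      (∀ g, χ g = ι (σ.character g) - ι (τ.character g)) → Realizable ι χ := by
  intro a
  induction a using Nat.strong_induction_on with
  | _ a ih =>
  intro σ b τ hd
  by_cases hφ : ∃ φ : Representation.IntertwiningMap σ τ, φ ≠ 0
  · obtain ⟨φ, hφ⟩ := hφ
    have hc : ∀ (g : G) (v : Fin a → K), φ (σ g v) = τ g (φ v) := fun g v => Representation.IntertwiningMap.isIntertwining _ _ φ g v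
    let W : Subrepresentation σ := ⟨LinearMap.ker φ.toLinearMap, fun g v hv => by
      rw [LinearMap.mem_ker] at hv ⊢
      exact (hc g v).trans (by rw [show φ v = 0 from hv, map_zero])⟩
    let R : Subrepresentation τ := ⟨LinearMap.range φ.toLinearMap, fun g v hv => by
      obtain ⟨w, rfl⟩ := hv
      exact ⟨σ g w, hc g w⟩⟩
    obtain ⟨U, hU⟩ := exists_compl σ W
    obtain ⟨U', hU'⟩ := exists_compl τ R
    let f : U.toSubmodule →ₗ[K] R.toSubmodule :=
      (φ.toLinearMap.comp U.toSubmodule.subtype).codRestrict _ fun u => ⟨u, rfl⟩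
    have hf : Function.Bijective f := by
      constructor
      · rw [← LinearMap.ker_eq_bot, Submodule.eq_bot_iff]
        intro u hu
        have h1 : φ.toLinearMap (u : Fin a → K) = 0 := congrArg Subtype.val (LinearMap.mem_ker.1 hu)
        exact Subtype.ext (Submodule.disjoint_def.1 hU.disjoint _ (LinearMap.mem_ker.2 h1) u.2)
      · rintro ⟨_, v, rfl⟩
        obtain ⟨w, hw, u, hu, rfl⟩ := Submodule.mem_sup.1 (hU.sup_eq_top ▸ Submodule.mem_top (x := v))
        refine ⟨⟨u, hu⟩, Subtype.ext ?_⟩
        show φ.toLinearMap u = φ.toLinearMap (w + u)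
        rw [map_add, LinearMap.mem_ker.1 hw, zero_add]
    let e := LinearEquiv.ofBijective f hf
    have hUR : ∀ g, U.toRepresentation.character g = R.toRepresentation.character g := by
      intro g
      show LinearMap.trace K _ _ = LinearMap.trace K _ _
      rw [← LinearMap.trace_conj' (U.toRepresentation g) e]
      congr 1
      refine LinearMap.ext fun v => ?_
      obtain ⟨u, rfl⟩ := e.surjective v
      rw [LinearEquiv.conj_apply, LinearMap.comp_apply, LinearMap.comp_apply, LinearEquiv.coe_coe, LinearEquiv.coe_coe,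
        LinearEquiv.symm_apply_apply]
      exact Subtype.ext (hc g u)
    obtain ⟨a', σ', hσ'⟩ := realizable_of_rep ι W.toRepresentation (f := fun g => ι (W.toRepresentation.character g)) fun g => rfl
    obtain ⟨b', τ', hτ'⟩ := realizable_of_rep ι U'.toRepresentation (f := fun g => ι (U'.toRepresentation.character g)) fun g => rfl
    have ha' : a' = Module.finrank K W.toSubmodule := by
      have h1 := hσ' 1
      simp only at h1
      rw [Representation.char_one, Representation.char_one, Module.finrank_fin_fun] at h1
      exact_mod_cast (by simpa using h1.symm : (a' : ℂ) = Module.finrank K W.toSubmodule)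
    refine ih a' ?_ σ' b' τ' fun g => ?_
    · have hne : W.toSubmodule ≠ ⊤ := fun htop => hφ (by
        have h0 : φ.toLinearMap = 0 := LinearMap.ker_eq_top.1 htop
        exact Representation.IntertwiningMap.toLinearMap_injective _ _ h0)
      rw [ha']
      exact (Submodule.finrank_lt hne).trans_eq (Module.finrank_fin_fun K)
    · rw [hd g, character_split σ W U hU, character_split τ R U' hU', hUR, map_add, map_add, ← hσ', ← hτ']
      ring
  · push Not at hφ
    have h0 : Module.finrank K (Representation.IntertwiningMap σ τ) = 0 := by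
      haveI : Subsingleton (Representation.IntertwiningMap σ τ) := ⟨fun x y => (hφ x).trans (hφ y).symm⟩
      exact Module.finrank_zero_of_subsingleton
    have e1 := pair_eq ι σ τ
    have e2 : (Nat.card G : ℂ)⁻¹ * ∑ g : G, ι (σ.character g) * ι (τ.character g⁻¹) = 0 := by
      rw [← Equiv.sum_comp (Equiv.inv G)]
      simpa [h0, mul_comm] using e1
    rw [h0, Nat.cast_zero] at e1
    have key : Module.finrank K (Representation.IntertwiningMap σ σ) +
        Module.finrank K (Representation.IntertwiningMap τ τ) = 1 := by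
      have : ((Module.finrank K (Representation.IntertwiningMap σ σ) +
          Module.finrank K (Representation.IntertwiningMap τ τ) : ℕ) : ℂ) = 1 := by
        rw [Nat.cast_add, ← pair_eq ι σ σ, ← pair_eq ι τ τ, ← hχ]
        simp only [hd, sub_mul, mul_sub, Finset.sum_sub_distrib]
        linear_combination e2 + e1
      exact_mod_cast this
    haveI : FiniteDimensional K (Representation.IntertwiningMap σ σ) :=
      Module.Finite.equiv (Representation.invariantsEquivIntertwiningMap σ σ)
    haveI : FiniteDimensional K (Representation.IntertwiningMap τ τ) :=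
      Module.Finite.equiv (Representation.invariantsEquivIntertwiningMap τ τ)
    have hzero : ∀ {n : ℕ} (π : Representation K G (Fin n → K)) [FiniteDimensional K (Representation.IntertwiningMap π π)],
        Module.finrank K (Representation.IntertwiningMap π π) = 0 → ∀ g, π.character g = 0 := by
      intro n π _ hπ g
      haveI : Subsingleton (Representation.IntertwiningMap π π) := Module.finrank_zero_iff.1 hπ
      have hid : (LinearMap.id : (Fin n → K) →ₗ[K] (Fin n → K)) = 0 := by
        have := congrArg (fun f : Representation.IntertwiningMap π π => f.toLinearMap)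
          (Subsingleton.elim (⟨LinearMap.id, fun g => by simp⟩ : Representation.IntertwiningMap π π) 0)
        simpa using this
      show LinearMap.trace K _ (π g) = 0
      rw [show π g = LinearMap.id.comp (π g) from (LinearMap.id_comp _).symm, hid, LinearMap.zero_comp, map_zero]
    by_cases hτ : Module.finrank K (Representation.IntertwiningMap τ τ) = 0
    · exact ⟨a, σ, fun g => by rw [hd g, hzero τ hτ g, map_zero, sub_zero]⟩
    · exfalso
      have hσ0 := hzero σ (by omega)
      obtain ⟨d, hd0, hd1⟩ := hdeg
      have hneg : χ 1 = -((Module.finrank K (Fin b → K) : ℕ) : ℂ) := by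
        rw [hd, hσ0, map_zero, zero_sub, Representation.char_one, map_natCast]
      rw [hd1] at hneg
      have h5 : ((d + Module.finrank K (Fin b → K) : ℕ) : ℂ) = 0 := by push_cast; rw [hneg]; ring
      have := Nat.cast_eq_zero.1 h5
      omega

end CfsgLib.CyclotomicSplit
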