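import Cfsg.Agent.Lib.Chars.GlaubermanCount
import Cfsg.Agent.Lib.Chars.Clifford

/-!
Invariant characters over an invariant character of a normal subgroup.
-/

set_option autoImplicit false
set_option linter.style.haveILetI false

namespace CfsgLib.Chars.Glauberman

open Cfsg CfsgLib.Chars CfsgLib.Blocks

universe u v w

section

variable {G : Type u} {C : Type v} {S : Type w} [Group G] [Group C] [Group S] {p : ℕ}
  [Fintype G] [Fintype C]

/-- Multiplicities follow compatible automorphisms. -/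
theorem mult_twist (h : Setting G C S p) (a : MulAut G) (b : MulAut C)
    (hab : ∀ c, h.ι (b c) = a (h.ι c)) {χ χ' : IrrCharacter G} {β β' : IrrCharacter C}
    (hχ : ∀ g, (χ' : G → ℂ) g = (χ : G → ℂ) (a g)) (hβ : ∀ c, (β' : C → ℂ) c = (β : C → ℂ) (b c)) :
    mult h χ' β' = mult h χ β := by
  apply Nat.cast_injective (R := ℂ)
  rw [← mult_spec, ← mult_spec, classInner, classInner]
  congr 1
  refine Fintype.sum_equiv b.toEquiv _ _ fun c => ?_
  change (χ' : G → ℂ) (h.ι c) * _ = (χ : G → ℂ) (h.ι (b c)) * _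
  rw [hab, hχ, hβ]
  rfl

end

/-- An invariant character of a normal subgroup lies under an invariant character. -/
theorem exists_inv_over (n : ℕ) : ∀ (G : Type u) (S : Type w) [Group G] [Group S] [Fintype G]
    [Finite S] [Group.IsSolvable S] (φ : S →* MulAut G), Nat.card S ≤ n →
    (Nat.card G).Coprime (Nat.card S) →
    ∀ (N : Subgroup G) [N.Normal] [Fintype N], (∀ (s : S) (x : N), φ s (x : G) ∈ N) →
    ∀ θ : IrrCharacter N,
      (∀ (s : S) (x y : N), (y : G) = φ s (x : G) → (θ : N → ℂ) y = (θ : N → ℂ) x) →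
      ∃ χ : IrrCharacter G, IsInv φ (χ : G → ℂ) ∧
        classInner (fun x : N => (χ : G → ℂ) x) (θ : N → ℂ) ≠ 0 := by
  induction n with
  | zero => intro G S _ _ _ _ _ φ hn; exact absurd (Nat.card_pos (α := S)) (by omega)
  | succ n ih =>
  intro G S _ _ _ _ _ φ hn hcop N _ _ hN θ hθ
  classical
  rcases subsingleton_or_nontrivial S with hS | hS
  · have h1 : ∀ (s : S) (g : G), φ s g = g := fun s g => by
      rw [Subsingleton.elim s 1, map_one]; rfl
    by_contra hno
    push Not at hno
    have hne : indFun N (θ : N → ℂ) 1 ≠ 0 := by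
      rw [indFun_one]
      exact mul_ne_zero (Nat.cast_ne_zero.mpr Subgroup.index_ne_zero_of_finite) (irr_one_ne_zero θ)
    apply hne
    rw [classFunction_expand (indFun_isClassFunction N (θ : N → ℂ)) 1]
    refine Finset.sum_eq_zero fun χ _ => ?_
    have h2 := hno χ fun s g => congrArg _ (h1 s g)
    rw [frobenius N (θ : N → ℂ) (IsCharacter.isClassFunction (isCharacter_irr χ)),
      classInner_character_comm (isCharacter_irr θ) (IsCharacter.restrict (isCharacter_irr χ) N),
      h2, zero_mul]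
  obtain ⟨p, P, hp, hPn, hPp, hP0⟩ := exists_normal_pGroup (S := S)
  haveI := hPn
  haveI : Fact p.Prime := ⟨hp⟩
  have hpS : p ∣ Nat.card S := by
    obtain ⟨k, hk⟩ := IsPGroup.iff_card.mp hPp
    refine dvd_trans ?_ P.card_subgroup_dvd_card
    rw [hk]
    refine dvd_pow_self p fun h0 => hP0 (Subgroup.card_eq_one.mp ?_)
    rw [hk, h0, pow_zero]
  have hpG : ¬ p ∣ Nat.card G := fun hd => hp.ne_one (by
    have := Nat.Coprime.of_dvd hd hpS hcop
    simpa using this)
  obtain ⟨M, hM⟩ := exists_isPModular hp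
  -- the fixed points of `P`
  let C : Subgroup G :=
    { carrier := {g | ∀ x ∈ P, φ x g = g}
      one_mem' := fun x _ => map_one _
      mul_mem' := fun {a b} ha hb x hx => by rw [map_mul, ha x hx, hb x hx]
      inv_mem' := fun {a} ha x hx => by rw [map_inv, ha x hx] }
  have hstab : ∀ (s : S) (c : C), φ s (c : G) ∈ C := fun s c x hx => by
    have h1 := c.2 (s⁻¹ * x * s) (by simpa using hPn.conj_mem x hx s⁻¹)
    calc φ x (φ s (c : G)) = φ (s * (s⁻¹ * x * s)) (c : G) := by
          rw [← MulAut.mul_apply, ← map_mul]; congr 2; group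
      _ = φ s (c : G) := by rw [map_mul, MulAut.mul_apply, h1]
  have hinvl : ∀ (s : S) (g : G), φ s⁻¹ (φ s g) = g := fun s g => by
    rw [← MulAut.mul_apply, ← map_mul, inv_mul_cancel, map_one]; rfl
  have hinvr : ∀ (s : S) (g : G), φ s (φ s⁻¹ g) = g := fun s g => by
    rw [← MulAut.mul_apply, ← map_mul, mul_inv_cancel, map_one]; rfl
  let ψ : S →* MulAut C :=
    { toFun := fun s =>
        { toFun := fun c => ⟨φ s (c : G), hstab s c⟩
          invFun := fun c => ⟨φ s⁻¹ (c : G), hstab s⁻¹ c⟩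
          left_inv := fun c => Subtype.ext (hinvl s c)
          right_inv := fun c => Subtype.ext (hinvr s c)
          map_mul' := fun a b => Subtype.ext (map_mul (φ s) (a : G) b) }
      map_one' := MulEquiv.ext fun c => Subtype.ext
        (show φ 1 (c : G) = c by rw [map_one]; rfl)
      map_mul' := fun s t => MulEquiv.ext fun c => Subtype.ext
        (show φ (s * t) (c : G) = φ s (φ t (c : G)) by rw [map_mul]; rfl) }
  have hψP : P ≤ ψ.ker := fun x hx => MonoidHom.mem_ker.mpr
    (MulEquiv.ext fun c => Subtype.ext (c.2 x hx))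
  let ψ' : S ⧸ P →* MulAut C := QuotientGroup.lift P ψ hψP
  let φN : S →* MulAut N :=
    { toFun := fun s =>
        { toFun := fun x => ⟨φ s (x : G), hN s x⟩
          invFun := fun x => ⟨φ s⁻¹ (x : G), hN s⁻¹ x⟩
          left_inv := fun x => Subtype.ext (hinvl s x)
          right_inv := fun x => Subtype.ext (hinvr s x)
          map_mul' := fun a b => Subtype.ext (map_mul (φ s) (a : G) b) }
      map_one' := MulEquiv.ext fun c => Subtype.ext
        (show φ 1 (c : G) = c by rw [map_one]; rfl)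
      map_mul' := fun s t => MulEquiv.ext fun c => Subtype.ext
        (show φ (s * t) (c : G) = φ s (φ t (c : G)) by rw [map_mul]; rfl) }
  haveI : Fintype C := Fintype.ofFinite C
  let N' : Subgroup C := N.subgroupOf C
  haveI : Fintype N' := Fintype.ofFinite N'
  have hN' : ∀ (s : S) (x : N'), ψ s (x : C) ∈ N' := fun s x => hN s ⟨((x : C) : G), x.2⟩
  let ψN : S → MulAut N' := fun s =>
    { toFun := fun x => ⟨ψ s (x : C), hN' s x⟩
      invFun := fun x => ⟨ψ s⁻¹ (x : C), hN' s⁻¹ x⟩
      left_inv := fun x => Subtype.ext (Subtype.ext (hinvl s _))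
      right_inv := fun x => Subtype.ext (Subtype.ext (hinvr s _))
      map_mul' := fun a b => Subtype.ext (map_mul (ψ s) (a : C) b) }
  let h : Setting G C P p :=
    { φ := φ.comp P.subtype
      ι := C.subtype
      inj := C.subtype_injective
      mem := fun g => ⟨fun hg => ⟨⟨g, fun x hx => hg ⟨x, hx⟩⟩, rfl⟩,
        fun ⟨c, hc⟩ s => hc ▸ c.2 (s : S) s.2⟩
      pgroup := hPp
      prime := hp
      ndvd := hpG }
  let hn' : Setting N N' P p :=
    { φ := φN.comp P.subtype
      ι := { toFun := fun x => ⟨((x : C) : G), x.2⟩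
             map_one' := rfl
             map_mul' := fun _ _ => rfl }
      inj := fun a b e => Subtype.ext (Subtype.ext (congrArg (fun z : N => (z : G)) e))
      mem := fun g => ⟨fun hg => ⟨⟨⟨(g : G), fun x hx => congrArg Subtype.val (hg ⟨x, hx⟩)⟩, g.2⟩, rfl⟩,
        fun ⟨c, hc⟩ s => hc ▸ Subtype.ext ((c : C).2 (s : S) s.2)⟩
      pgroup := hPp
      prime := hp
      ndvd := fun hd => hpG (hd.trans N.card_subgroup_dvd_card) }
  have hθinv : ∀ s (x : N), (θ : N → ℂ) (φN s x) = (θ : N → ℂ) x := fun s x => hθ s x (φN s x) rfl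
  obtain ⟨n1, -, -, -⟩ := corr hn' hM
  obtain ⟨θ', hθ'm, hθ'u⟩ := n1 θ fun s x => hθinv (s : S) x
  have hθ'inv : ∀ (s : S) (x : N'), (θ' : N' → ℂ) (ψN s x) = (θ' : N' → ℂ) x := fun s x => by
    let τ : IrrCharacter N' := ⟨fun x => (θ' : N' → ℂ) (ψN s x),
      IsIrrCharacter.comp θ'.2 (ψN s).toMonoidHom (ψN s).surjective⟩
    have e : mult hn' θ τ = mult hn' θ θ' := mult_twist hn' (φN s) (ψN s) (fun _ => rfl)
      (fun g => (hθinv s g).symm) (fun _ => rfl)
    exact congrFun (congrArg Subtype.val (hθ'u τ (show ¬ p ∣ mult hn' θ τ by rw [e]; exact hθ'm))) x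
  -- the smaller quotient
  have hlt : Nat.card (S ⧸ P) ≤ n := by
    have h5 := P.card_eq_card_quotient_mul_card_subgroup
    have h6 : 2 ≤ Nat.card P := by
      by_contra h7
      have : 0 < Nat.card P := Nat.card_pos
      exact hP0 (Subgroup.card_eq_one.mp (by omega))
    have : 0 < Nat.card (S ⧸ P) := Nat.card_pos
    nlinarith
  obtain ⟨β, hβ, hβθ⟩ := ih C (S ⧸ P) ψ' hlt
    ((hcop.coprime_dvd_left C.card_subgroup_dvd_card).coprime_dvd_right
      (P.card_eq_card_quotient_mul_card_subgroup ▸ dvd_mul_right _ _))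
    N' (fun q x => by
      obtain ⟨s, rfl⟩ := QuotientGroup.mk_surjective q
      exact hN' s x) θ' (fun q x y e => by
      obtain ⟨s, rfl⟩ := QuotientGroup.mk_surjective q
      rw [show y = ψN s x from Subtype.ext e]
      exact hθ'inv s x)
  obtain ⟨h1, -, h3, h4⟩ := corr h hM
  obtain ⟨χ, hχ, hm⟩ := h4 β
  have hinv : IsInv φ (χ : G → ℂ) := fun s g => by
    let χ' : IrrCharacter G := ⟨fun g => (χ : G → ℂ) (φ s g),
      IsIrrCharacter.comp χ.2 (φ s).toMonoidHom (φ s).surjective⟩
    have hχ' : IsInv h.φ (χ' : G → ℂ) := fun x g => by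
      change (χ : G → ℂ) (φ s (φ (x : S) g)) = (χ : G → ℂ) (φ s g)
      rw [← MulAut.mul_apply, ← map_mul, show s * (x : S) = s * x * s⁻¹ * s by group, map_mul,
        MulAut.mul_apply]
      exact hχ ⟨_, hPn.conj_mem x x.2 s⟩ _
    have e : mult h χ' β = mult h χ β := mult_twist h (φ s) (ψ s) (fun _ => rfl) (fun _ => rfl)
      (fun c => (hβ (QuotientGroup.mk s) c).symm)
    exact congrFun (congrArg Subtype.val
      (h3 χ' χ hχ' hχ β (show ¬ p ∣ mult h χ' β by rw [e]; exact hm) hm)) g
  refine ⟨χ, hinv, fun hzero => ?_⟩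
  set r : ℂ := classInner (fun x : N' => (χ : G → ℂ) ((x : C) : G)) (θ' : N' → ℂ) with hr
  -- through the centralizer
  obtain ⟨hu, -, -, -⟩ := corr h hM
  choose e he using fun γ : IrrCharacter C => exists_mult (IsCharacter.restrict (isCharacter_irr γ) N') θ'
  have hr1 : r = ∑ γ : IrrCharacter C, ((mult h χ γ * e γ : ℕ) : ℂ) := by
    have hexp : (fun x : N' => (χ : G → ℂ) ((x : C) : G)) = fun x : N' =>
        ∑ γ : IrrCharacter C, (mult h χ γ : ℂ) * (γ : C → ℂ) (x : C) := by
      funext x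
      rw [show (χ : G → ℂ) ((x : C) : G) = _ from classFunction_expand
        (IsCharacter.isClassFunction (IsCharacter.comp (isCharacter_irr χ) h.ι)) (x : C)]
      exact Finset.sum_congr rfl fun γ _ => by rw [mult_spec]
    rw [hr, hexp, classInner_sum]
    exact Finset.sum_congr rfl fun γ _ => by rw [he, Nat.cast_mul]
  have hrne : ¬ MemLocalIdeal M r := by
    intro hrm
    rw [hr1, ← Finset.add_sum_erase _ _ (Finset.mem_univ β)] at hrm
    have h5 : MemLocalIdeal M (∑ γ ∈ Finset.univ.erase β, ((mult h χ γ * e γ : ℕ) : ℂ)) := by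
      refine mli_sum hM _ fun γ hγ => (mli_natCast_iff hM _).mpr (dvd_mul_of_dvd_left ?_ _)
      by_contra hγm
      exact Finset.ne_of_mem_erase hγ ((hu χ hχ).unique hγm hm)
    have h6 := mli_sub hM hrm h5
    rw [add_sub_cancel_right, mli_natCast_iff hM] at h6
    obtain ⟨e', -, he', -, hdeg⟩ := clifford N' β θ' hβθ
    have hee : e β = e' := Nat.cast_injective (R := ℂ) ((he β).symm.trans he')
    rcases hp.dvd_mul.mp h6 with h7 | h7
    · exact hm h7
    · refine hpG ((h7.trans ?_).trans ((charDegree_dvd β).trans C.card_subgroup_dvd_card))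
      rw [hdeg, hee, mul_assoc]
      exact dvd_mul_right _ _
  -- through the normal subgroup
  choose a ha using fun τ : IrrCharacter N => exists_mult (IsCharacter.restrict (isCharacter_irr χ) N) τ
  have hr2 : r = ∑ τ : IrrCharacter N, ((a τ * mult hn' τ θ' : ℕ) : ℂ) := by
    have hexp : (fun x : N' => (χ : G → ℂ) ((x : C) : G)) = fun x : N' =>
        ∑ τ : IrrCharacter N, (a τ : ℂ) * (τ : N → ℂ) (hn'.ι x) := by
      funext x
      rw [show (χ : G → ℂ) ((x : C) : G) = _ from classFunction_expand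
        (IsCharacter.isClassFunction (IsCharacter.restrict (isCharacter_irr χ) N)) (hn'.ι x)]
      exact Finset.sum_congr rfl fun τ _ => by rw [ha]
    rw [hr, hexp, classInner_sum]
    exact Finset.sum_congr rfl fun τ _ => by rw [mult_spec, Nat.cast_mul]
  have htw : ∀ (τ : IrrCharacter N) (s : P),
      ((a (twist hn' τ s) * mult hn' (twist hn' τ s) θ' : ℕ) : ℂ) = ((a τ * mult hn' τ θ' : ℕ) : ℂ) := by
    intro τ s
    have e1 : a (twist hn' τ s) = a τ := by
      apply Nat.cast_injective (R := ℂ)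
      rw [← ha, ← ha, classInner, classInner]
      congr 1
      refine Fintype.sum_equiv (φN (s : S)).toEquiv _ _ fun x => ?_
      change _ = (χ : G → ℂ) (φ (s : S) (x : G)) * _
      rw [hinv]
      rfl
    have e2 : mult hn' (twist hn' τ s) θ' = mult hn' τ θ' :=
      mult_twist hn' (hn'.φ s) (1 : MulAut N') (fun c => ((hn'.fix c s).symm :)) (fun _ => rfl)
        (fun _ => rfl)
    rw [e1, e2]
  have h8 := mli_sum_inv hn' hM (F := fun τ => ((a τ * mult hn' τ θ' : ℕ) : ℂ)) htw
    (fun τ => mlr_natCast hM _)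
  rw [← hr2] at h8
  have h9 : MemLocalIdeal M (∑ τ ∈ Finset.univ.filter
      (fun τ : IrrCharacter N => IsInv hn'.φ (τ : N → ℂ)), ((a τ * mult hn' τ θ' : ℕ) : ℂ)) := by
    refine mli_sum hM _ fun τ hτ => (mli_natCast_iff hM _).mpr ?_
    by_cases hd : p ∣ mult hn' τ θ'
    · exact dvd_mul_of_dvd_right hd _
    · have e : τ = θ := eq_of_mult hn' hM (Finset.mem_filter.mp hτ).2
        (fun s x => hθinv (s : S) x) hd hθ'm
      subst e
      have : a τ = 0 := Nat.cast_injective (R := ℂ) (by rw [← ha τ, Nat.cast_zero]; exact hzero)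
      rw [this, zero_mul]
      exact dvd_zero p
  have h10 := mli_add hM h8 h9
  rw [sub_add_cancel] at h10
  exact hrne h10

end CfsgLib.Chars.Glauberman
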