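import Cfsg.Agent.Lib.Chars.Orth
import Mathlib.LinearAlgebra.Eigenspace.Triangularizable
import Mathlib.Analysis.Matrix.PosDef
import Mathlib.LinearAlgebra.Matrix.Charpoly.Basic

/-!
Invariant bilinear forms of irreducible matrix representations, the Frobenius–Schur sign, and
realizability over `ℝ`.
-/

set_option autoImplicit false

namespace CfsgLib.Chars.RealRep

open scoped ComplexConjugate ComplexOrder
open Matrix Cfsg CfsgLib.Chars

universe u

variable {G : Type u} [Group G] {n : ℕ}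

/-- Only scalars commute with all the matrices. -/
def Scalars (A : G →* Matrix (Fin n) (Fin n) ℂ) : Prop :=
  ∀ T : Matrix (Fin n) (Fin n) ℂ, (∀ g, A g * T = T * A g) → ∃ c : ℂ, T = c • 1

/-- The matrices of a representation. -/
noncomputable def mat (ρ : Representation ℂ G (Fin n → ℂ)) : G →* Matrix (Fin n) (Fin n) ℂ where
  toFun g := LinearMap.toMatrix' (ρ g)
  map_one' := by rw [map_one]; exact LinearMap.toMatrix'_one
  map_mul' g h := by rw [map_mul]; exact LinearMap.toMatrix'_mul _ _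

theorem trace_mat (ρ : Representation ℂ G (Fin n → ℂ)) (g : G) :
    (mat ρ g).trace = ρ.character g := by
  rw [Representation.character, LinearMap.trace_eq_matrix_trace ℂ (Pi.basisFun ℂ (Fin n)),
    LinearMap.toMatrix_eq_toMatrix']
  rfl

/-- Schur's lemma in matrix form. -/
theorem scalars_of_irreducible (ρ : Representation ℂ G (Fin n → ℂ)) (h : ρ.IsIrreducible) :
    Scalars (mat ρ) := by
  rw [isIrreducible_iff] at h
  haveI := h.1
  intro T hT
  set L := Matrix.toLin' T with hL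
  obtain ⟨c, hc⟩ := Module.End.exists_eigenvalue L
  have hcomm : ∀ g v, L (ρ g v) = ρ g (L v) := fun g v => by
    have e := congrArg (fun X : Matrix (Fin n) (Fin n) ℂ => Matrix.toLin' X v) (hT g)
    simp only [Matrix.toLin'_mul, LinearMap.comp_apply] at e
    change Matrix.toLin' (LinearMap.toMatrix' (ρ g)) (L v) =
      L (Matrix.toLin' (LinearMap.toMatrix' (ρ g)) v) at e
    rw [Matrix.toLin'_toMatrix'] at e
    exact e.symm
  rcases h.2 (Module.End.eigenspace L c) (fun g v hv => by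
    rw [Module.End.mem_eigenspace_iff] at hv ⊢
    rw [hcomm, hv, map_smul]) with hb | htop
  · exact absurd hb hc
  · refine ⟨c, Matrix.toLin'.injective (LinearMap.ext fun v => ?_)⟩
    rw [map_smul, Matrix.toLin'_one, LinearMap.smul_apply, LinearMap.id_apply]
    exact Module.End.mem_eigenspace_iff.mp (htop ▸ Submodule.mem_top)

variable [Fintype G] (A : G →* Matrix (Fin n) (Fin n) ℂ)

theorem mul_inv_self' (g : G) : A g * A g⁻¹ = 1 := by rw [← map_mul, mul_inv_cancel, map_one]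

theorem inv_mul_self' (g : G) : A g⁻¹ * A g = 1 := by rw [← map_mul, inv_mul_cancel, map_one]

/-- The averaged hermitian form. -/
noncomputable def herm : Matrix (Fin n) (Fin n) ℂ := ∑ g : G, (A g)ᴴ * A g

theorem herm_posDef : (herm A).PosDef := by
  classical
  rw [herm, ← Finset.add_sum_erase _ _ (Finset.mem_univ (1 : G)), map_one, conjTranspose_one,
    one_mul]
  exact Matrix.PosDef.one.add_posSemidef
    (Matrix.posSemidef_sum _ fun g _ => Matrix.posSemidef_conjTranspose_mul_self _)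

theorem herm_inv (g : G) : (A g)ᴴ * herm A * A g = herm A := by
  rw [herm, Finset.mul_sum, Finset.sum_mul]
  exact Fintype.sum_equiv (Equiv.mulRight g) _ _ fun h => by
    rw [Equiv.coe_mulRight, map_mul, conjTranspose_mul]
    simp only [Matrix.mul_assoc]

/-- A nonzero invariant form is nondegenerate, with a positive scalar attached. -/
theorem invariant_form (hA : Scalars A) {M : Matrix (Fin n) (Fin n) ℂ}
    (hM : ∀ g, (A g)ᵀ * M * A g = M) (hM0 : M ≠ 0) :
    IsUnit M ∧ ∃ r : ℝ, 0 < r ∧ Mᴴ * ((herm A)ᵀ)⁻¹ * M = (r : ℂ) • herm A := by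
  set H := herm A
  have hH : H.PosDef := herm_posDef A
  have hHt : (Hᵀ)⁻¹.PosDef := hH.transpose.inv
  have hHu : IsUnit H.det := (Matrix.isUnit_iff_isUnit_det _).mp hH.isUnit
  have hHtu : IsUnit Hᵀ.det := (Matrix.isUnit_iff_isUnit_det _).mp hH.transpose.isUnit
  set N := Mᴴ * (Hᵀ)⁻¹ * M with hN
  have hNinv : ∀ g, (A g)ᴴ * N * A g = N := by
    intro g
    have h1 : M * A g = (A g⁻¹)ᵀ * M := by
      calc M * A g = ((A g⁻¹)ᵀ * (A g)ᵀ) * (M * A g) := by
            rw [← transpose_mul, mul_inv_self', transpose_one, one_mul]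
        _ = (A g⁻¹)ᵀ * ((A g)ᵀ * M * A g) := by simp only [Matrix.mul_assoc]
        _ = _ := by rw [hM]
    have h2 : (A g)ᴴ * Mᴴ = Mᴴ * ((A g⁻¹)ᵀ)ᴴ := by
      rw [← conjTranspose_mul, ← conjTranspose_mul, h1]
    have h3 : ((A g⁻¹)ᵀ)ᴴ * (Hᵀ)⁻¹ * (A g⁻¹)ᵀ = (Hᵀ)⁻¹ := by
      have h4 : (A g)ᵀ * Hᵀ * ((A g)ᴴ)ᵀ = Hᵀ := by
        have e := congrArg Matrix.transpose (herm_inv A g)
        rwa [transpose_mul, transpose_mul, ← Matrix.mul_assoc] at e
      refine (Matrix.inv_eq_right_inv ?_).symm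
      have e1 : Hᵀ * ((A g)ᴴ)ᵀ = (A g⁻¹)ᵀ * Hᵀ := by
        calc Hᵀ * ((A g)ᴴ)ᵀ = ((A g⁻¹)ᵀ * (A g)ᵀ) * (Hᵀ * ((A g)ᴴ)ᵀ) := by
              rw [← transpose_mul (A g) (A g⁻¹), mul_inv_self', transpose_one, one_mul]
          _ = (A g⁻¹)ᵀ * ((A g)ᵀ * Hᵀ * ((A g)ᴴ)ᵀ) := by simp only [Matrix.mul_assoc]
          _ = _ := by rw [h4]
      have e2 : ((A g)ᴴ)ᵀ * ((A g⁻¹)ᵀ)ᴴ = 1 := by
        rw [show ((A g⁻¹)ᵀ)ᴴ = ((A g⁻¹)ᴴ)ᵀ from rfl, ← transpose_mul, ← conjTranspose_mul,
          mul_inv_self', conjTranspose_one, transpose_one]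
      have e3 : Hᵀ * ((A g⁻¹)ᵀ)ᴴ = (A g)ᵀ * Hᵀ := by
        calc Hᵀ * ((A g⁻¹)ᵀ)ᴴ = ((A g)ᵀ * Hᵀ * ((A g)ᴴ)ᵀ) * ((A g⁻¹)ᵀ)ᴴ := by rw [h4]
          _ = (A g)ᵀ * Hᵀ * (((A g)ᴴ)ᵀ * ((A g⁻¹)ᵀ)ᴴ) := by simp only [Matrix.mul_assoc]
          _ = _ := by rw [e2, mul_one]
      calc Hᵀ * (((A g⁻¹)ᵀ)ᴴ * (Hᵀ)⁻¹ * (A g⁻¹)ᵀ) = (Hᵀ * ((A g⁻¹)ᵀ)ᴴ) * (Hᵀ)⁻¹ * (A g⁻¹)ᵀ := by
            simp only [Matrix.mul_assoc]
        _ = (A g)ᵀ * (Hᵀ * (Hᵀ)⁻¹) * (A g⁻¹)ᵀ := by rw [e3]; simp only [Matrix.mul_assoc]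
        _ = 1 := by
            rw [Matrix.mul_nonsing_inv _ hHtu, mul_one, ← transpose_mul, inv_mul_self',
              transpose_one]
    calc (A g)ᴴ * N * A g = ((A g)ᴴ * Mᴴ) * (Hᵀ)⁻¹ * (M * A g) := by
          simp only [hN, Matrix.mul_assoc]
      _ = Mᴴ * (((A g⁻¹)ᵀ)ᴴ * (Hᵀ)⁻¹ * (A g⁻¹)ᵀ) * M := by
          rw [h2, h1]; simp only [Matrix.mul_assoc]
      _ = N := by rw [h3]
  obtain ⟨c, hc⟩ := hA (H⁻¹ * N) (fun g => by
    have e1 : N * A g = (A g⁻¹)ᴴ * N := by
      calc N * A g = ((A g⁻¹)ᴴ * (A g)ᴴ) * (N * A g) := by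
            rw [← conjTranspose_mul, mul_inv_self', conjTranspose_one, one_mul]
        _ = (A g⁻¹)ᴴ * ((A g)ᴴ * N * A g) := by simp only [Matrix.mul_assoc]
        _ = _ := by rw [hNinv]
    have e2 : H * A g = (A g⁻¹)ᴴ * H := by
      calc H * A g = ((A g⁻¹)ᴴ * (A g)ᴴ) * (H * A g) := by
            rw [← conjTranspose_mul, mul_inv_self', conjTranspose_one, one_mul]
        _ = (A g⁻¹)ᴴ * ((A g)ᴴ * H * A g) := by simp only [Matrix.mul_assoc]
        _ = _ := by rw [herm_inv]
    calc A g * (H⁻¹ * N) = H⁻¹ * (H * A g) * (H⁻¹ * N) := by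
          simp only [← Matrix.mul_assoc, Matrix.nonsing_inv_mul _ hHu, one_mul]
      _ = H⁻¹ * (A g⁻¹)ᴴ * (H * H⁻¹) * N := by rw [e2]; simp only [Matrix.mul_assoc]
      _ = H⁻¹ * N * A g := by
          rw [Matrix.mul_nonsing_inv _ hHu, mul_one, Matrix.mul_assoc H⁻¹ N, e1, Matrix.mul_assoc])
  have hNc : N = c • H := by
    have := congrArg (H * ·) hc
    simpa [← Matrix.mul_assoc, Matrix.mul_nonsing_inv _ hHu] using this
  have hNpos : N.PosSemidef := hHt.posSemidef.conjTranspose_mul_mul_same M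
  have hN0 : N ≠ 0 := by
    intro h0
    apply hM0
    obtain hn | hn := isEmpty_or_nonempty (Fin n)
    · exact Subsingleton.elim _ _
    · refine Matrix.ext fun i j => ?_
      have hv := congrArg (fun X : Matrix (Fin n) (Fin n) ℂ =>
        star (Pi.single j (1 : ℂ)) ⬝ᵥ (X *ᵥ Pi.single j 1)) h0
      simp only [hN, ← mulVec_mulVec, dotProduct_mulVec _ Mᴴ, ← star_mulVec, zero_mulVec,
        dotProduct_zero] at hv
      by_contra hne
      have hvne : M *ᵥ Pi.single j (1 : ℂ) ≠ 0 := fun h => hne (by simpa using congrFun h i)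
      exact (hHt.dotProduct_mulVec_pos hvne).ne' hv
  have hHtr : 0 < H.trace := by
    obtain hn | hn := isEmpty_or_nonempty (Fin n)
    · exact absurd (Subsingleton.elim _ _) hN0
    · exact hH.trace_pos
  have hctr : N.trace = c * H.trace := by rw [hNc, trace_smul, smul_eq_mul]
  have hNtr : 0 < N.trace := by
    refine lt_of_le_of_ne hNpos.trace_nonneg fun h => hN0 ?_
    exact hNpos.trace_eq_zero_iff.mp h.symm
  have hcpos : 0 < c := by
    rw [show c = N.trace * H.trace⁻¹ by rw [hctr, mul_assoc, mul_inv_cancel₀ hHtr.ne', mul_one]]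
    exact mul_pos hNtr (inv_pos.mpr hHtr)
  obtain ⟨hre, him⟩ := Complex.pos_iff.mp hcpos
  have hcr : c = (c.re : ℂ) := Complex.ext rfl him.symm
  refine ⟨?_, c.re, hre, by rw [← hcr, ← hNc]⟩
  rw [Matrix.isUnit_iff_isUnit_det]
  refine isUnit_of_mul_isUnit_right (x := (Mᴴ * (Hᵀ)⁻¹).det) ?_
  rw [← Matrix.det_mul, show Mᴴ * (Hᵀ)⁻¹ * M = c • H from hNc, Matrix.det_smul]
  exact (isUnit_iff_ne_zero.mpr hcpos.ne').pow _ |>.mul hHu

/-- Two invariant forms are proportional. -/
theorem invariant_unique (hA : Scalars A) {M M' : Matrix (Fin n) (Fin n) ℂ}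
    (hM : ∀ g, (A g)ᵀ * M * A g = M) (hM0 : M ≠ 0) (hM' : ∀ g, (A g)ᵀ * M' * A g = M') :
    ∃ c : ℂ, M' = c • M := by
  have hu := (Matrix.isUnit_iff_isUnit_det _).mp (invariant_form A hA hM hM0).1
  have key : ∀ {X : Matrix (Fin n) (Fin n) ℂ}, (∀ g, (A g)ᵀ * X * A g = X) →
      ∀ g, X * A g = (A g⁻¹)ᵀ * X := fun {X} hX g => by
    calc X * A g = ((A g⁻¹)ᵀ * (A g)ᵀ) * (X * A g) := by
          rw [← transpose_mul, mul_inv_self', transpose_one, one_mul]
      _ = (A g⁻¹)ᵀ * ((A g)ᵀ * X * A g) := by simp only [Matrix.mul_assoc]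
      _ = _ := by rw [hX]
  obtain ⟨c, hc⟩ := hA (M⁻¹ * M') (fun g => by
    calc A g * (M⁻¹ * M') = M⁻¹ * (M * A g) * (M⁻¹ * M') := by
          rw [← Matrix.mul_assoc M⁻¹, Matrix.nonsing_inv_mul _ hu, one_mul]
      _ = M⁻¹ * (A g⁻¹)ᵀ * (M * M⁻¹) * M' := by rw [key hM]; simp only [Matrix.mul_assoc]
      _ = M⁻¹ * M' * A g := by
          rw [Matrix.mul_nonsing_inv _ hu, mul_one, Matrix.mul_assoc M⁻¹ M', key hM',
            Matrix.mul_assoc])
  refine ⟨c, ?_⟩
  have := congrArg (M * ·) hc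
  simpa [← Matrix.mul_assoc, Matrix.mul_nonsing_inv _ hu] using this

/-- The transpose of an invariant form is its multiple by the indicator. -/
theorem transpose_eq_indicator (hA : Scalars A) {M : Matrix (Fin n) (Fin n) ℂ}
    (hM : ∀ g, (A g)ᵀ * M * A g = M) (hn : n ≠ 0) :
    Mᵀ = ((Nat.card G : ℂ)⁻¹ * ∑ s : G, (A (s * s)).trace) • M := by
  classical
  by_cases hM0 : M = 0
  · simp [hM0]
  have hu := (Matrix.isUnit_iff_isUnit_det _).mp (invariant_form A hA hM hM0).1
  have hMt : ∀ g, (A g)ᵀ * Mᵀ * A g = Mᵀ := fun g => by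
    conv_rhs => rw [← hM g]
    rw [transpose_mul, transpose_mul, transpose_transpose, Matrix.mul_assoc]
  obtain ⟨c, hc⟩ := invariant_unique A hA hM hM0 hMt
  suffices h : (∑ s : G, (A (s * s)).trace) = (Nat.card G : ℂ) * c by
    rw [h, ← mul_assoc, inv_mul_cancel₀ (natCast_card_ne_zero G), one_mul, hc]
  -- the averaging operator
  have hn' : (n : ℂ) ≠ 0 := Nat.cast_ne_zero.mpr hn
  have havg : ∀ X : Matrix (Fin n) (Fin n) ℂ, ∑ s : G, A s⁻¹ * X * A s =
      ((Nat.card G : ℂ) * X.trace / n) • (1 : Matrix (Fin n) (Fin n) ℂ) := by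
    intro X
    obtain ⟨d, hd⟩ := hA (∑ s : G, A s⁻¹ * X * A s) (fun g => by
      rw [Finset.mul_sum, Finset.sum_mul]
      refine Fintype.sum_equiv (Equiv.mulRight g⁻¹) _ _ fun s => ?_
      rw [Equiv.coe_mulRight, _root_.mul_inv_rev, inv_inv, map_mul, map_mul]
      simp only [Matrix.mul_assoc]
      rw [inv_mul_self', mul_one])
    have htr := congrArg Matrix.trace hd
    rw [trace_sum, trace_smul, trace_one, Fintype.card_fin, smul_eq_mul] at htr
    rw [hd]
    congr 1
    rw [eq_div_iff hn', ← htr]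
    rw [Finset.sum_congr rfl (g := fun _ => X.trace) (fun s _ => by
      rw [trace_mul_cycle, mul_inv_self', one_mul]), Finset.sum_const, nsmul_eq_mul,
      Finset.card_univ, Nat.card_eq_fintype_card]
  have hterm : ∀ s : G, (A (s * s)).trace =
      ∑ a, ∑ b, M⁻¹ a b * ∑ x, ∑ d, (A s⁻¹) x b * M x d * (A s) d a := by
    intro s
    have e : A s = M⁻¹ * ((A s⁻¹)ᵀ * M) := by
      have e0 : M * A s = (A s⁻¹)ᵀ * M := by
        calc M * A s = ((A s⁻¹)ᵀ * (A s)ᵀ) * (M * A s) := by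
              rw [← transpose_mul, mul_inv_self', transpose_one, one_mul]
          _ = (A s⁻¹)ᵀ * ((A s)ᵀ * M * A s) := by simp only [Matrix.mul_assoc]
          _ = _ := by rw [hM]
      rw [← e0, ← Matrix.mul_assoc, Matrix.nonsing_inv_mul _ hu, one_mul]
    rw [map_mul]
    nth_rewrite 1 [e]
    rw [Matrix.mul_assoc, Matrix.mul_assoc]
    simp only [trace, diag_apply, Matrix.mul_apply, transpose_apply, Finset.mul_sum]
    refine Finset.sum_congr rfl fun a _ => Finset.sum_congr rfl fun b _ =>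
      Finset.sum_congr rfl fun x _ => Finset.sum_congr rfl fun d _ => ?_
    ring
  have hB : ∀ x b d a, ∑ s : G, (A s⁻¹) x b * (A s) d a =
      if b = d ∧ x = a then (Nat.card G : ℂ) / n else 0 := by
    intro x b d a
    have h := congrArg (fun Y : Matrix (Fin n) (Fin n) ℂ => Y x a) (havg (Matrix.single b d 1))
    simp only [Matrix.sum_apply] at h
    rw [Finset.sum_congr rfl (fun s _ => show (A s⁻¹) x b * (A s) d a =
      (A s⁻¹ * Matrix.single b d (1 : ℂ) * A s : Matrix (Fin n) (Fin n) ℂ) x a by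
        rw [Matrix.mul_assoc]; simp [Matrix.mul_apply, Matrix.single_apply, ite_and]), h]
    by_cases hbd : b = d
    · subst hbd
      rw [trace_single_eq_same]
      by_cases hxa : x = a <;> simp [hxa]
    · rw [trace_single_eq_of_ne _ _ _ hbd]
      simp [hbd]
  simp only [hterm]
  calc ∑ s : G, ∑ a, ∑ b, M⁻¹ a b * ∑ x, ∑ d, (A s⁻¹) x b * M x d * (A s) d a
      = ∑ a, ∑ b, M⁻¹ a b * ∑ x, ∑ d, M x d * ∑ s : G, (A s⁻¹) x b * (A s) d a := by
        rw [Finset.sum_comm]
        refine Finset.sum_congr rfl fun a _ => ?_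
        rw [Finset.sum_comm]
        refine Finset.sum_congr rfl fun b _ => ?_
        rw [← Finset.mul_sum]
        congr 1
        rw [Finset.sum_comm]
        refine Finset.sum_congr rfl fun x _ => ?_
        rw [Finset.sum_comm]
        refine Finset.sum_congr rfl fun d _ => ?_
        rw [Finset.mul_sum]
        exact Finset.sum_congr rfl fun s _ => by ring
    _ = ∑ a, ∑ b, M⁻¹ a b * (M a b * ((Nat.card G : ℂ) / n)) := by
        refine Finset.sum_congr rfl fun a _ => Finset.sum_congr rfl fun b _ => ?_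
        congr 1
        simp only [hB]
        rw [Finset.sum_eq_single a (fun x _ hx => Finset.sum_eq_zero fun d _ => by simp [hx])
          (by simp), Finset.sum_eq_single b (fun d _ hd => by simp [Ne.symm hd]) (by simp)]
        simp
    _ = ((Nat.card G : ℂ) / n) * (M⁻¹ * Mᵀ).trace := by
        simp only [trace, diag_apply, Matrix.mul_apply, transpose_apply, Finset.mul_sum]
        exact Finset.sum_congr rfl fun a _ => Finset.sum_congr rfl fun b _ => by ring
    _ = (Nat.card G : ℂ) * c := by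
        rw [hc, Matrix.mul_smul, Matrix.nonsing_inv_mul _ hu, trace_smul, trace_one,
          Fintype.card_fin, smul_eq_mul]
        field_simp

/-- A real character gives a nonzero invariant form. -/
theorem exists_invariant (h : (∑ g : G, (A g).trace * (A g).trace) ≠ 0) :
    ∃ M : Matrix (Fin n) (Fin n) ℂ, M ≠ 0 ∧ ∀ g, (A g)ᵀ * M * A g = M := by
  by_contra hno
  push Not at hno
  apply h
  have hzero : ∀ i j, ∑ g : G, (A g)ᵀ * Matrix.single i j (1 : ℂ) * A g = 0 := by
    intro i j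
    by_contra hne
    obtain ⟨g, hg⟩ := hno _ hne
    apply hg
    rw [Finset.mul_sum, Finset.sum_mul]
    refine Fintype.sum_equiv (Equiv.mulRight g) _ _ fun s => ?_
    rw [Equiv.coe_mulRight, map_mul, transpose_mul]
    simp only [Matrix.mul_assoc]
  have he : ∀ i j k l, ∑ g : G, (A g) i k * (A g) j l = 0 := by
    intro i j k l
    have := congrArg (fun Y : Matrix (Fin n) (Fin n) ℂ => Y k l) (hzero i j)
    simp only [Matrix.sum_apply, Matrix.zero_apply] at this
    rw [← this]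
    refine Finset.sum_congr rfl fun g _ => ?_
    rw [Matrix.mul_assoc]
    simp [Matrix.mul_apply, Matrix.single_apply, transpose_apply, ite_and]
  simp only [trace, diag_apply, Finset.sum_mul, Finset.mul_sum]
  rw [Finset.sum_comm]
  refine Finset.sum_eq_zero fun i _ => ?_
  rw [Finset.sum_comm]
  exact Finset.sum_eq_zero fun j _ => he j i j i

/-- A symmetric invariant form gives matrices over the reals. -/
theorem exists_real (hA : Scalars A) {M : Matrix (Fin n) (Fin n) ℂ}
    (hM : ∀ g, (A g)ᵀ * M * A g = M) (hM0 : M ≠ 0) (hsym : Mᵀ = M) :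
    ∃ B : G →* Matrix (Fin n) (Fin n) ℝ, ∀ g, (((B g).trace : ℝ) : ℂ) = (A g).trace := by
  classical
  obtain ⟨hMu, r, hr, hN⟩ := invariant_form A hA hM hM0
  set H := herm A
  have hH : H.PosDef := herm_posDef A
  have hHu : IsUnit H.det := (Matrix.isUnit_iff_isUnit_det _).mp hH.isUnit
  let cm : Matrix (Fin n) (Fin n) ℂ →+* Matrix (Fin n) (Fin n) ℂ := (starRingEnd ℂ).mapMatrix
  have hcmH : cm H = Hᵀ := by
    conv_rhs => rw [← hH.1.eq]
    rfl
  have hcmM : cm M = Mᴴ := by
    conv_rhs => rw [← hsym]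
    rfl
  have hcc : ∀ X, cm (cm X) = X := fun X => Matrix.ext fun i j => Complex.conj_conj _
  have hct : ∀ X, cm Xᵀ = Xᴴ := fun X => rfl
  set s : ℂ := ((Real.sqrt r : ℝ) : ℂ)
  have hs0 : s ≠ 0 := Complex.ofReal_ne_zero.mpr (Real.sqrt_ne_zero'.mpr hr)
  have hss : s * s = (r : ℂ) := by
    rw [← Complex.ofReal_mul, Real.mul_self_sqrt hr.le]
  set T := s⁻¹ • (H⁻¹ * Mᴴ) with hT
  -- `T` intertwines the conjugate matrices
  have hAT : ∀ g, A g * T = T * cm (A g) := by
    intro g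
    have e1 : H * A g = (A g⁻¹)ᴴ * H := by
      calc H * A g = ((A g⁻¹)ᴴ * (A g)ᴴ) * (H * A g) := by
            rw [← conjTranspose_mul, mul_inv_self', conjTranspose_one, one_mul]
        _ = (A g⁻¹)ᴴ * ((A g)ᴴ * H * A g) := by simp only [Matrix.mul_assoc]
        _ = _ := by rw [herm_inv]
    have e2 : Mᴴ * cm (A g) = (A g⁻¹)ᴴ * Mᴴ := by
      have e0 : M * A g = (A g⁻¹)ᵀ * M := by
        calc M * A g = ((A g⁻¹)ᵀ * (A g)ᵀ) * (M * A g) := by
              rw [← transpose_mul, mul_inv_self', transpose_one, one_mul]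
          _ = (A g⁻¹)ᵀ * ((A g)ᵀ * M * A g) := by simp only [Matrix.mul_assoc]
          _ = _ := by rw [hM]
      rw [← hcmM, ← map_mul, e0, map_mul, hct]
    calc A g * T = s⁻¹ • (H⁻¹ * (H * A g) * (H⁻¹ * Mᴴ)) := by
          rw [hT, Matrix.mul_smul, ← Matrix.mul_assoc H⁻¹ H, Matrix.nonsing_inv_mul _ hHu, one_mul]
      _ = s⁻¹ • (H⁻¹ * (A g⁻¹)ᴴ * (H * H⁻¹) * Mᴴ) := by rw [e1]; simp only [Matrix.mul_assoc]
      _ = T * cm (A g) := by
          rw [Matrix.mul_nonsing_inv _ hHu, mul_one, hT, Matrix.smul_mul, Matrix.mul_assoc H⁻¹ Mᴴ,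
            e2, Matrix.mul_assoc]
  have hTT : T * cm T = 1 := by
    have hci : cm H⁻¹ = (Hᵀ)⁻¹ := by
      refine (Matrix.inv_eq_right_inv ?_).symm
      rw [← hcmH, ← map_mul, Matrix.mul_nonsing_inv _ hHu, map_one]
    have hcs : cm T = s⁻¹ • ((Hᵀ)⁻¹ * M) := by
      have hsm : ∀ X, cm (s⁻¹ • X) = s⁻¹ • cm X := fun X =>
        Matrix.ext fun i j => by simp [cm, s]
      rw [hT, hsm, map_mul, hci, ← hcmM, hcc]
    rw [hcs, hT, Matrix.smul_mul, Matrix.mul_smul, smul_smul,
      show H⁻¹ * Mᴴ * ((Hᵀ)⁻¹ * M) = H⁻¹ * (Mᴴ * (Hᵀ)⁻¹ * M) by simp only [Matrix.mul_assoc],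
      hN, Matrix.mul_smul, Matrix.nonsing_inv_mul _ hHu, smul_smul,
      show s⁻¹ * s⁻¹ * (r : ℂ) = 1 by rw [← hss]; field_simp, one_smul]
  have hTdet : T.det ≠ 0 := fun h => by
    have := congrArg Matrix.det hTT
    rw [Matrix.det_mul, h, zero_mul, Matrix.det_one] at this
    exact zero_ne_one this
  -- an invertible matrix fixed by the semilinear involution
  obtain ⟨P, hP, hPu⟩ : ∃ P : Matrix (Fin n) (Fin n) ℂ, T * cm P = P ∧ IsUnit P.det := by
    open Polynomial in
    let q : ℂ[X] := Matrix.det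
      ((C (1 : ℂ) + C Complex.I * X) • (1 : Matrix (Fin n) (Fin n) ℂ[X]) +
        (C (1 : ℂ) - C Complex.I * X) • T.map C)
    have heval : ∀ z : ℂ, q.eval z =
        (((1 : ℂ) + Complex.I * z) • (1 : Matrix (Fin n) (Fin n) ℂ) +
          ((1 : ℂ) - Complex.I * z) • T).det := by
      intro z
      rw [← Polynomial.coe_evalRingHom, RingHom.map_det]
      congr 1
      refine Matrix.ext fun i j => ?_
      by_cases hij : i = j <;> simp [hij, Matrix.one_apply]
    have hq : q ≠ 0 := by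
      intro h0
      have h := heval Complex.I
      rw [h0, Polynomial.eval_zero, Complex.I_mul_I, show (1 : ℂ) + -1 = 0 by ring, zero_smul,
        zero_add, show (1 : ℂ) - -1 = 2 by ring, Matrix.det_smul] at h
      exact mul_ne_zero (pow_ne_zero _ two_ne_zero) hTdet h.symm
    obtain ⟨t, ht⟩ : ∃ t : ℕ, q.eval (t : ℂ) ≠ 0 := by
      by_contra hno
      push Not at hno
      refine hq (Polynomial.eq_zero_of_infinite_isRoot q ?_)
      exact Set.infinite_of_injective_forall_mem (f := fun t : ℕ => (t : ℂ)) Nat.cast_injective hno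
    refine ⟨_, ?_, isUnit_iff_ne_zero.mpr ((heval _).symm.trans_ne ht)⟩
    set a : ℂ := 1 + Complex.I * (t : ℂ)
    set b : ℂ := 1 - Complex.I * (t : ℂ)
    have hsm : ∀ (z : ℂ) X, cm (z • X) = conj z • cm X := fun z X =>
      Matrix.ext fun i j => by simp [cm]
    have ha : conj a = b := by simp [a, b]; ring
    have hb : conj b = a := by simp [a, b]
    rw [map_add, hsm, hsm, map_one, ha, hb, Matrix.mul_add, Matrix.mul_smul, Matrix.mul_smul,
      mul_one, hTT, add_comm]
  let conjugated : G → Matrix (Fin n) (Fin n) ℂ := fun g => P⁻¹ * A g * P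
  have hreal : ∀ g, cm (conjugated g) = conjugated g := by
    intro g
    have hci : cm P⁻¹ = P⁻¹ * T := by
      have h1 : cm P⁻¹ * cm P = 1 := by rw [← map_mul, Matrix.nonsing_inv_mul _ hPu, map_one]
      have h2 : (P⁻¹ * T) * cm P = 1 := by
        rw [Matrix.mul_assoc, hP, Matrix.nonsing_inv_mul _ hPu]
      have h3 : cm P * (P⁻¹ * T) = 1 := mul_eq_one_comm.mp h2
      calc cm P⁻¹ = cm P⁻¹ * (cm P * (P⁻¹ * T)) := by rw [h3, mul_one]
        _ = P⁻¹ * T := by rw [← Matrix.mul_assoc, h1, one_mul]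
    show cm (P⁻¹ * A g * P) = P⁻¹ * A g * P
    rw [map_mul, map_mul, hci, Matrix.mul_assoc P⁻¹ T, ← hAT g]
    simp only [Matrix.mul_assoc]
    rw [hP]
  let B : G → Matrix (Fin n) (Fin n) ℝ := fun g => (conjugated g).map Complex.re
  have hB : ∀ g, (B g).map Complex.ofRealHom = conjugated g := fun g => Matrix.ext fun i j =>
    (Complex.conj_eq_iff_re.mp (congrFun (congrFun (hreal g) i) j))
  have hinj : Function.Injective (Complex.ofRealHom.mapMatrix :
      Matrix (Fin n) (Fin n) ℝ →+* Matrix (Fin n) (Fin n) ℂ) :=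
    Matrix.map_injective Complex.ofReal_injective
  refine ⟨{ toFun := B, map_one' := hinj ?_, map_mul' := fun g h => hinj ?_ }, fun g => ?_⟩
  · rw [map_one, RingHom.mapMatrix_apply, hB]
    show P⁻¹ * A 1 * P = 1
    rw [map_one, mul_one, Matrix.nonsing_inv_mul _ hPu]
  · rw [map_mul, RingHom.mapMatrix_apply, RingHom.mapMatrix_apply, RingHom.mapMatrix_apply, hB, hB,
      hB]
    show P⁻¹ * A (g * h) * P = P⁻¹ * A g * P * (P⁻¹ * A h * P)
    rw [map_mul]
    simp only [Matrix.mul_assoc]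
    rw [← Matrix.mul_assoc P P⁻¹, Matrix.mul_nonsing_inv _ hPu, one_mul]
  · show (((B g).trace : ℝ) : ℂ) = _
    have e : (((B g).trace : ℝ) : ℂ) = ((B g).map Complex.ofRealHom).trace := by
      simp [trace, Complex.ofReal_sum]
    rw [e, hB]
    show (P⁻¹ * A g * P).trace = _
    rw [trace_mul_cycle, Matrix.mul_nonsing_inv _ hPu, one_mul]

/-- A representation with an irreducible character is irreducible. -/
theorem isIrreducible_of_character {ρ : Representation ℂ G (Fin n → ℂ)}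
    (h : IsIrrCharacter G ρ.character) : ρ.IsIrreducible := by
  classical
  haveI := neZero_natCard G
  set χ : IrrCharacter G := ⟨_, h⟩
  have hn : (n : ℂ) = (χ : G → ℂ) 1 := by
    show _ = ρ.character 1
    rw [Representation.char_one, Module.finrank_fin_fun]
  rw [isIrreducible_iff]
  refine ⟨?_, fun W hW => ?_⟩
  · have hn0 : n ≠ 0 := fun h0 => irr_one_ne_zero χ (by rw [← hn, h0, Nat.cast_zero])
    haveI : Nonempty (Fin n) := ⟨⟨0, Nat.pos_of_ne_zero hn0⟩⟩
    infer_instance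
  by_contra hno
  push Not at hno
  obtain ⟨hb, ht⟩ := hno
  haveI : Representation.IsSemisimpleRepresentation ρ := inferInstance
  obtain ⟨C, hC⟩ := exists_isCompl (⟨W, fun g v hv => hW g v hv⟩ : Subrepresentation ρ)
  have hW' : ∀ g : G, ∀ v ∈ C.toSubmodule, ρ g v ∈ C.toSubmodule :=
    fun g v hv => C.apply_mem_toSubmodule g hv
  have hc : IsCompl W C.toSubmodule := by
    constructor
    · rw [disjoint_iff]
      exact congrArg Subrepresentation.toSubmodule hC.inf_eq_bot
    · rw [codisjoint_iff]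
      exact congrArg Subrepresentation.toSubmodule hC.sup_eq_top
  have hadd := character_eq_add_of_isCompl ρ W C.toSubmodule hW hW' hc
  set a := Representation.character (k := ℂ) (V := W) (subRep ρ W hW) with ha'
  set b := Representation.character (k := ℂ) (V := C.toSubmodule) (subRep ρ C.toSubmodule hW')
    with hb'
  have hac : IsCharacter G a := isCharacter_character _
  have hbc : IsCharacter G b := isCharacter_character _
  have ha1 : a 1 = (Module.finrank ℂ W : ℂ) := Representation.char_one _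
  have hb1 : b 1 = (Module.finrank ℂ C.toSubmodule : ℂ) := Representation.char_one _
  have hbne : b 1 ≠ 0 := by
    rw [hb1, Nat.cast_ne_zero]
    intro h0
    rw [Submodule.finrank_eq_zero] at h0
    apply ht
    have := hc.sup_eq_top
    rwa [h0, sup_bot_eq] at this
  choose ma hma using exists_mult hac
  choose mb hmb using exists_mult hbc
  have hsum : ∀ θ : IrrCharacter G, classInner (χ : G → ℂ) (θ : G → ℂ) = (ma θ : ℂ) + mb θ := by
    intro θ
    rw [← hma, ← hmb, show (χ : G → ℂ) = a + b from hadd]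
    simp only [classInner, Pi.add_apply, add_mul, Finset.sum_add_distrib, mul_add]
  obtain ⟨θ, hθ⟩ : ∃ θ, ma θ ≠ 0 := by
    by_contra hno
    push Not at hno
    have h1 := classFunction_expand (IsCharacter.isClassFunction hac) 1
    simp only [hma, hno, Nat.cast_zero, zero_mul, Finset.sum_const_zero, ha1, Nat.cast_eq_zero] at h1
    exact hb (Submodule.finrank_eq_zero.mp h1)
  obtain ⟨η, hη⟩ : ∃ η, mb η ≠ 0 := by
    by_contra hno
    push Not at hno
    apply hbne
    have h1 := classFunction_expand (IsCharacter.isClassFunction hbc) 1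
    simp only [hmb, hno, Nat.cast_zero, zero_mul, Finset.sum_const_zero] at h1
    exact h1
  have h1 := hsum θ
  have h2 := hsum η
  rw [classInner_irr] at h1 h2
  split_ifs at h1 with e1
  · split_ifs at h2 with e2
    · subst e1 e2
      have : ma χ + mb χ = 1 := by exact_mod_cast h1.symm
      omega
    · have : ma η + mb η = 0 := by exact_mod_cast h2.symm
      omega
  · have : ma θ + mb θ = 0 := by exact_mod_cast h1.symm
    omega

end CfsgLib.Chars.RealRep
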